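import Cfsg.Agent.H86.OddCase

/-!
# The case of odd characteristic, twisted form

`odd_opp` : the argument of `H86.Par.odd_case` with `FL D f ≤ H` replaced by the hypotheses which hold in twisted groups.
-/

set_option autoImplicit false

namespace Cfsg.Agent.H522.TwOpp

open Cfsg.Lie Cfsg.Agent.ChevalleyStructure Cfsg.Agent.ChevalleyStructure.RootCombGood
  Cfsg.Agent.ChevalleyStructure.RootWord Cfsg.Agent.ChevalleyStructure.RootVec
  Cfsg.Agent.ChevalleyStructure.RootVecTab Cfsg.Agent.ChevalleyStructure.RootSupport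
  Cfsg.Agent.ChevalleyStructure.Elts Cfsg.Agent.ChevalleyStructure.BruhatSplit
  Cfsg.Agent.H86.Lev Cfsg.Agent.H86.Graded Cfsg.Agent.H92.ChevCent Cfsg.Agent.H92.ChevFrob
  Cfsg.Agent.LieClassical.SLTwoUnipotent Cfsg.Agent.H86.Par

open Matrix (SpecialLinearGroup)

universe u

variable {D : ChevalleyDatum} {F : Type u} [Field F]

/-- real root elements generate the representatives -/
theorem nG_mem (hD : InList D) {H : Subgroup (GL D.Idx F)} {s : ℕ}
    (h1 : ∀ c : F, c = 1 ∨ c = -1 → xG hD s c ∈ H) (h2 : ∀ c : F, c = 1 ∨ c = -1 → xG hD (D.neg s) c ∈ H)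
    {c : F} (hc : c = 1 ∨ c = -1) : nG hD s c ∈ H := by
  have hc' : -c⁻¹ = 1 ∨ -c⁻¹ = -1 := by
    rcases hc with rfl | rfl
    · right; simp
    · left; norm_num
  rw [nG_def]
  exact Subgroup.mul_mem _ (h1 c hc) (Subgroup.mul_mem _ (h2 _ hc') (h1 c hc))

/-- the case of odd characteristic -/
theorem odd_opp (hD : InList D) {isL : ℕ → Bool} (_T : HiP D isL) {l' : List ℤ} (N : HiN D l')
    (p : ℕ) [Fact p.Prime] [CharP F p] (hp : p ≠ 2) {f : F →+* F}
    {H : Subgroup (GL D.Idx F)} [Finite H] (_hH : H ≤ D.group F) (S : GL D.Idx F → Prop)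
    (hA : ∀ u ∈ H, u ∈ D.posUnipotent F → fr D f u = u)
    (hC : ∀ g ∈ H, fr D f g = g ∨ ∃ q ∈ Q D F (top D), S q ∧ ∃ t : F, t ≠ 0 ∧
      g⁻¹ * xG hD (top D) 1 * g = q⁻¹ * xG hD 0 t * q)
    (_hP : ∀ g ∈ H, g ∈ P F D → fr D f g = g)
    (hB : ∀ q ∈ Q D F (top D), S q → (∀ r < D.nroots, car D (top D) r = 1 →
      f (kap D (top D) r (q : Matrix D.Idx D.Idx F)) = kap D (top D) r (q : Matrix D.Idx D.Idx F)) →
      ∃ e : F, ∃ W ∈ H, W ∈ Q D F (top D) ∧ fr D f W = W ∧ q = xG hD (top D) e * W)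
    (_hF : ∀ q ∈ Q D F (top D), S q → fr D f q = q → q ∈ H)
    (real : ℕ → Prop) (hR : ∀ s < D.nroots, real s → ∀ c : F, c = 1 ∨ c = -1 → xG hD s c ∈ H)
    (htop : real (top D)) (hzero : real 0)
    (hodd : ∃ s < D.nroots, car D (top D) s = 0 ∧ ∃ i < D.rank, real (D.simple i) ∧
      real (D.neg (D.simple i)) ∧ 1 ≤ car D (top D) (D.reflectRoot i s)) :
    ∀ g ∈ H, fr D f g = g := by
  have G := good hD
  have T := hiT hD
  have h2F : (2 : F) ≠ 0 := by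
    intro h
    have h1 : ((2 : ℕ) : F) = 0 := by exact_mod_cast h
    rw [CharP.cast_eq_zero_iff F p] at h1
    exact hp ((Nat.prime_dvd_prime_iff_eq (Fact.out : p.Prime) Nat.prime_two).1 h1)
  intro g hg
  rcases hC g hg with h | ⟨q, hq, hSq, t, ht, e⟩
  · exact h
  have hx : xG hD (top D) (1 : F) ∈ H := hR _ (top_lt hD) htop 1 (Or.inl rfl)
  have hd : q⁻¹ * xG hD 0 t * q ∈ H := by
    rw [← e]
    exact Subgroup.mul_mem _ (Subgroup.mul_mem _ (Subgroup.inv_mem _ hg) hx) hg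
  -- the involution
  obtain ⟨φ, hφi, hφu, hφl⟩ := exists_phi hD N F
  set A : Subgroup (SpecialLinearGroup (Fin 2) F) :=
    H.comap ((MulAut.conj q⁻¹).toMonoidHom.comp φ) with hA'
  have hAmem : ∀ z, z ∈ A ↔ q⁻¹ * φ z * q ∈ H := by
    intro z
    rw [hA', Subgroup.mem_comap]
    show q⁻¹ * φ z * q⁻¹⁻¹ ∈ H ↔ _
    rw [inv_inv]
  have hAfin : Finite A := by
    refine Finite.of_injective (fun z : A => (⟨q⁻¹ * φ z * q, (hAmem z).1 z.2⟩ : H)) ?_
    intro z z' hzz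
    have h3 : q⁻¹ * φ z * q = q⁻¹ * φ z' * q := congrArg Subtype.val hzz
    have h4 : φ z = φ z' := by
      have := congrArg (fun w => q * w * q⁻¹) h3
      simpa [mul_assoc] using this
    exact Subtype.ext (hφi h4)
  have huA : u (1 : F) ∈ A := by
    rw [hAmem, hφu]
    have h3 := Q_comm_top hD G T hq 1
    have : q⁻¹ * xG hD (top D) 1 * q = xG hD (top D) 1 := by
      rw [mul_assoc, ← h3, inv_mul_cancel_left]
    rw [this]
    exact hx
  have hlA : l t ∈ A := by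
    rw [hAmem, hφl]
    exact hd
  have hneg := neg_one_mem (p := p) hp A ht huA hlA
  rw [hAmem, phi_neg_one hD hφu hφl] at hneg
  set h := hG hD (top D) (-1 : F) with hh
  have h0R : ∀ c : F, c = 1 ∨ c = -1 → xG hD (D.neg (top D)) c ∈ H := by
    rw [neg_top hD]
    exact hR 0 (zero_lt hD) hzero
  have hhF : h ∈ H := by
    have hn : nG hD (top D) (-1 : F) ∈ H := nG_mem hD (hR _ (top_lt hD) htop) h0R (Or.inr rfl)
    rw [hh, hG_def]
    exact Subgroup.mul_mem _ hn hn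
  have hm1 : (-1 : F) ≠ 0 := neg_ne_zero.2 one_ne_zero
  have hconj : ∀ s < D.nroots, ∀ t : F, h * xG hD s t * h⁻¹ = xG hD s ((-1) ^ car D (top D) s * t) :=
    fun s hs t => hG_top_conj hD hm1 hs t
  have hhQ : h * q * h⁻¹ ∈ Q D F (top D) := conj_Q_le hD (fun s hs h1 v => by
    rw [hconj s hs]; exact xG_mem_Q hD hs h1 _) q hq
  have hk : q⁻¹ * (h * q * h⁻¹) ∈ H := by
    have : q⁻¹ * (h * q * h⁻¹) = (q⁻¹ * h * q) * h⁻¹ := by group
    rw [this]
    exact Subgroup.mul_mem _ hneg (Subgroup.inv_mem _ hhF)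
  have hkQ : q⁻¹ * (h * q * h⁻¹) ∈ Q D F (top D) := Subgroup.mul_mem _ (Subgroup.inv_mem _ hq) hhQ
  have hkf := hA _ hk (Q_le_pos hD hkQ)
  -- coordinates of `q` are rational
  have hrat : ∀ r < D.nroots, car D (top D) r = 1 → f (kap D (top D) r (q : Matrix D.Idx D.Idx F)) =
      kap D (top D) r (q : Matrix D.Idx D.Idx F) := by
    intro r hr h1
    have h3 := kap_fr hD f hr h1 (q⁻¹ * (h * q * h⁻¹))
    rw [hkf, kap_add hD G T hr h1 (Subgroup.inv_mem _ hq) hhQ, kap_inv hD G T hr h1 hq,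
      kap_conj_scal hD hconj hr h1 hq, h1] at h3
    simp only [zpow_one, map_add, map_neg, map_mul, map_one] at h3
    have h4 : (2 : F) * (f (kap D (top D) r (q : Matrix D.Idx D.Idx F)) -
      kap D (top D) r (q : Matrix D.Idx D.Idx F)) = 0 := by linear_combination h3
    exact sub_eq_zero.1 ((mul_eq_zero.1 h4).resolve_left h2F)
  obtain ⟨e0, W, hWH, hWQ, hWf, he0⟩ := hB q hq hSq hrat
  have hWx := Q_comm_top hD G T hWQ e0
  -- `d' = W d W⁻¹ = x_a(-e) x_0(t) x_a(e)`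
  have hd' : W * (q⁻¹ * xG hD 0 t * q) * W⁻¹ = (xG hD (top D) e0)⁻¹ * xG hD 0 t * xG hD (top D) e0 := by
    rw [he0]; group
  -- a root of level zero moved to positive level
  obtain ⟨s, hs, hs0, i, hi, hir, hinr, hlev⟩ := hodd
  obtain ⟨m, hm⟩ : ∃ m : GL D.Idx F, m = nG hD (D.simple i) (1 : F) := ⟨_, rfl⟩
  have hmH : m ∈ H := by
    rw [hm]
    exact nG_mem hD (hR _ (G.simple_lt hi) hir) (hR _ (RootWord.neg_lt G (G.simple_lt hi)) hinr) (Or.inl rfl)
  have hmf : fr D f m = m := by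
    rw [hm]
    exact fr_of_mem_FL hD (NL_le_FL hD f (nG_mem_NL hD (G.simple_lt hi)))
  have hact : Acts m [i] := by rw [hm]; exact acts_nG_simple hD hi
  obtain ⟨t', ht'⟩ := acts_conj hD hact hs (1 : F)
  rw [wact_cons, wact_nil] at ht'
  have ht'0 := conj_ne hD hs one_ne_zero ht'
  have hyQ : xG hD (D.reflectRoot i s) t' ∈ Q D F (top D) := xG_mem_Q hD (G.reflect_lt hi hs) hlev t'
  -- `x_s(1)` commutes with `d'`
  have hsd : xG hD s 1 * ((xG hD (top D) e0)⁻¹ * xG hD 0 t * xG hD (top D) e0) =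
      ((xG hD (top D) e0)⁻¹ * xG hD 0 t * xG hD (top D) e0) * xG hD s 1 := by
    have h3 := comm_top0 hD hs hs0.ge 1 e0
    have h4 : xG hD s 1 * xG hD 0 t = xG hD 0 t * xG hD s 1 :=
      comm_hi hD (hi0 hD) hs (by rw [car0 hD, hs0]; norm_num) 1 t
    have h5 : xG hD s 1 * (xG hD (top D) e0)⁻¹ = (xG hD (top D) e0)⁻¹ * xG hD s 1 := by
      rw [xG_inv]; exact comm_top0 hD hs hs0.ge 1 (-e0)
    calc xG hD s 1 * ((xG hD (top D) e0)⁻¹ * xG hD 0 t * xG hD (top D) e0)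
        = (xG hD s 1 * (xG hD (top D) e0)⁻¹) * xG hD 0 t * xG hD (top D) e0 := by group
      _ = (xG hD (top D) e0)⁻¹ * (xG hD s 1 * xG hD 0 t) * xG hD (top D) e0 := by rw [h5]; group
      _ = (xG hD (top D) e0)⁻¹ * xG hD 0 t * (xG hD s 1 * xG hD (top D) e0) := by rw [h4]; group
      _ = _ := by rw [h3]; group
  -- the element `g₁ = g W⁻¹ m⁻¹`
  have hg1 : g * (W⁻¹ * m⁻¹) ∈ H := Subgroup.mul_mem _ hg (Subgroup.mul_mem _ (Subgroup.inv_mem _ hWH)
    (Subgroup.inv_mem _ hmH))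
  have hWm : fr D f (W⁻¹ * m⁻¹) = W⁻¹ * m⁻¹ := by
    rw [map_mul, map_inv, map_inv, hWf, hmf]
  rcases hC _ hg1 with h3 | ⟨q2, hq2, -, t2, ht2, e2⟩
  · exact fr_eq_of_mul h3 hWm
  · exfalso
    have e3 : q2⁻¹ * xG hD 0 t2 * q2 = m * ((xG hD (top D) e0)⁻¹ * xG hD 0 t * xG hD (top D) e0) * m⁻¹ := by
      rw [← e2, ← hd', ← e]; group
    have h4 := opp_comm hD (Q_le_pos hD hq2) hyQ ht2 (by
      rw [e3, ← ht']
      calc m * xG hD s 1 * m⁻¹ * (m * ((xG hD (top D) e0)⁻¹ * xG hD 0 t * xG hD (top D) e0) * m⁻¹)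
          = m * (xG hD s 1 * ((xG hD (top D) e0)⁻¹ * xG hD 0 t * xG hD (top D) e0)) * m⁻¹ := by group
        _ = m * (((xG hD (top D) e0)⁻¹ * xG hD 0 t * xG hD (top D) e0) * xG hD s 1) * m⁻¹ := by rw [hsd]
        _ = _ := by group)
    exact ht'0 ((xG_eq_one_iff hD (G.reflect_lt hi hs) _).1 h4)

end Cfsg.Agent.H522.TwOpp
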